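import Mathlib
import Cfsg.Prelude.Def_GeometricClasses
import Cfsg.Agent.Lib.Helper77.Asch.Defs

set_option autoImplicit false

namespace Cfsg.Agent.Lib.Helper56.Sng

open Cfsg Cfsg.Geo Cfsg.Agent.Lib.Helper77.Asch
open scoped MatrixGroups Matrix

variable {n : ℕ} {F : Type*} [Field F]

theorem blk0_pow {m k : ℕ} (A : Matrix (Fin m) (Fin m) F) (j : ℕ) :
    (Matrix.fromBlocks A 0 0 (1 : Matrix (Fin k) (Fin k) F)) ^ j = Matrix.fromBlocks (A ^ j) 0 0 1 := by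
  induction j with
  | zero => rw [pow_zero, pow_zero, Matrix.fromBlocks_one]
  | succ j ih =>
    rw [pow_succ, ih, Matrix.fromBlocks_multiply, pow_succ]
    simp

/-- BLK0. -/
theorem exists_block (m k r : ℕ) (hk : 2 ≤ k) (A : Matrix (Fin m) (Fin m) F) (hA : A ^ r = 1)
    (hd : A.det = 1) (hA1 : A ≠ 1) :
    ∃ x : Matrix.SpecialLinearGroup (Fin (m + k)) F, x ^ r = 1 ∧ x ≠ 1 ∧
      ∃ u w : Fin (m + k) → F, u ≠ 0 ∧ (∀ a : F, w ≠ a • u) ∧
        (x : Matrix (Fin (m + k)) (Fin (m + k)) F) *ᵥ u = u ∧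
        (x : Matrix (Fin (m + k)) (Fin (m + k)) F) *ᵥ w = w := by
  classical
  obtain ⟨B, hB⟩ : ∃ B : Matrix (Fin m ⊕ Fin k) (Fin m ⊕ Fin k) F,
      B = Matrix.fromBlocks A 0 0 (1 : Matrix (Fin k) (Fin k) F) := ⟨_, rfl⟩
  obtain ⟨e, he⟩ : ∃ e : Matrix (Fin m ⊕ Fin k) (Fin m ⊕ Fin k) F ≃ₐ[F] Matrix (Fin (m + k)) (Fin (m + k)) F,
      e = Matrix.reindexAlgEquiv F F finSumFinEquiv := ⟨_, rfl⟩
  have hdet : (e B).det = 1 := by
    rw [he, Matrix.det_reindexAlgEquiv, hB, Matrix.det_fromBlocks_zero₂₁, hd, Matrix.det_one, mul_one]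
  have hfix : ∀ i : Fin k, (e B) *ᵥ (Pi.single (finSumFinEquiv (Sum.inr i)) 1) = Pi.single (finSumFinEquiv (Sum.inr i)) 1 := by
    intro i
    rw [Matrix.mulVec_single_one]
    funext j
    obtain ⟨j', rfl⟩ := finSumFinEquiv.surjective j
    rw [he, hB]
    simp only [Matrix.col_apply, Matrix.coe_reindexAlgEquiv, Matrix.reindex_apply, Matrix.submatrix_apply,
      Equiv.symm_apply_apply]
    rw [Pi.single_apply]
    simp only [finSumFinEquiv.injective.eq_iff]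
    rcases j' with j' | j'
    · simp
    · simp [Matrix.one_apply]
  obtain ⟨x, hx⟩ : ∃ x : Matrix.SpecialLinearGroup (Fin (m + k)) F,
      (x : Matrix (Fin (m + k)) (Fin (m + k)) F) = e B := ⟨⟨_, hdet⟩, rfl⟩
  rw [← hx] at hfix
  refine ⟨x, ?_, ?_, Pi.single (finSumFinEquiv (Sum.inr ⟨0, by omega⟩)) 1,
    Pi.single (finSumFinEquiv (Sum.inr ⟨1, by omega⟩)) 1, ?_, ?_, hfix _, hfix _⟩
  · apply Subtype.ext
    rw [Matrix.SpecialLinearGroup.coe_pow, Matrix.SpecialLinearGroup.coe_one, hx]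
    rw [← map_pow, hB, blk0_pow, hA, Matrix.fromBlocks_one, map_one]
  · intro h1
    have h2 : e B = 1 := by rw [← hx, h1, Matrix.SpecialLinearGroup.coe_one]
    have h3 : B = 1 := by
      apply e.injective
      rw [h2, map_one]
    rw [hB, ← Matrix.fromBlocks_one, Matrix.fromBlocks_inj] at h3
    exact hA1 h3.1
  · intro h0
    have := congrFun h0 (finSumFinEquiv (Sum.inr ⟨0, by omega⟩))
    simp at this
  · intro a h0
    have := congrFun h0 (finSumFinEquiv (Sum.inr ⟨1, by omega⟩))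
    simp at this

end Cfsg.Agent.Lib.Helper56.Sng
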