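import Mathlib
import Cfsg.Prelude.Def_GeometricClasses
import Cfsg.Agent.Lib.Helper77.Asch.Defs

set_option autoImplicit false

namespace Cfsg.Agent.Lib.Helper56.Sng

open Cfsg Cfsg.Geo Cfsg.Agent.Lib.Helper77.Asch
open scoped MatrixGroups Matrix

variable {n : ℕ} {F : Type*} [Field F]

/-- BLK1. -/
theorem exists_small_one [Fintype F] {r : ℕ} (hr : r.Prime) (h : r ∣ Fintype.card F - 1) :
    ∃ A : Matrix (Fin 2) (Fin 2) F, A ^ r = 1 ∧ A.det = 1 ∧ A ≠ 1 := by
  classical
  have : Fact r.Prime := ⟨hr⟩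
  have hcard : r ∣ Fintype.card Fˣ := by rw [Fintype.card_units]; exact h
  obtain ⟨w, hw⟩ := exists_prime_orderOf_dvd_card r hcard
  have hwr : (w : F) ^ r = 1 := by
    rw [← Units.val_pow_eq_pow_val, ← hw, pow_orderOf_eq_one, Units.val_one]
  have hw1 : (w : F) ≠ 1 := by
    intro h1
    have : w = 1 := Units.ext h1
    rw [this, orderOf_one] at hw
    exact hr.one_lt.ne hw
  refine ⟨Matrix.diagonal ![(w : F), (w : F)⁻¹], ?_, ?_, ?_⟩
  · rw [Matrix.diagonal_pow, ← Matrix.diagonal_one]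
    congr 1
    funext i
    fin_cases i
    · simpa using hwr
    · simp [hwr]
  · rw [Matrix.det_diagonal]
    simp
  · intro h1
    have := congrFun (congrFun h1 0) 0
    simp at this
    exact hw1 (by rw [this, Units.val_one])

end Cfsg.Agent.Lib.Helper56.Sng
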