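import Mathlib
import Cfsg.Prelude.Def_GeometricClasses
import Cfsg.Agent.Lib.Helper77.Asch.Defs
import Cfsg.Agent.Lib.Helper25.Elu.EXI0
import Cfsg.Agent.Lib.Helper25.Elu.DET1
import Cfsg.Agent.Lib.Helper25.Elu.ORD

set_option autoImplicit false

namespace Cfsg.Agent.Lib.Helper56.Sng

open Cfsg Cfsg.Geo Cfsg.Agent.Lib.Helper77.Asch Cfsg.Agent.Lib.Helper25.Elu
open scoped MatrixGroups Matrix

variable {n : ℕ} {F : Type*} [Field F]

/-- BLK2. -/
theorem exists_small_ord [Fintype F] {p : ℕ} [Fact p.Prime] [CharP F p] {r : ℕ} [Fact r.Prime]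
    (hrp : r ≠ p) (h : ¬ r ∣ Fintype.card F - 1) :
    ∃ A : Matrix (Fin (orderOf ((Fintype.card F : ℕ) : ZMod r))) (Fin (orderOf ((Fintype.card F : ℕ) : ZMod r))) F,
      A ^ r = 1 ∧ A.det = 1 ∧ A ≠ 1 := by
  classical
  obtain ⟨T, hT, hker⟩ := exists_end_fixedfree (F := F) hrp
  have hpos : 0 < ordq F r := ordq_pos hrp
  have hdet := det_eq_one_of_pow T (Fact.out : r.Prime) hT h
  unfold ordq at T hT hker hpos hdet
  refine ⟨LinearMap.toMatrix' T, ?_, ?_, ?_⟩
  · have := map_pow (LinearMap.toMatrixAlgEquiv' (R := F) (n := Fin (orderOf ((Fintype.card F : ℕ) : ZMod r)))) T r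
    rw [hT, map_one] at this
    exact this.symm
  · rw [LinearMap.det_toMatrix']
    exact hdet
  · intro h1
    have hT1 : T = 1 := by
      apply LinearMap.toMatrix'.injective
      rw [h1]
      exact LinearMap.toMatrix'_one.symm
    rw [hT1, sub_self, LinearMap.ker_zero] at hker
    have : Nontrivial (Fin (orderOf ((Fintype.card F : ℕ) : ZMod r)) → F) := by
      have : Nonempty (Fin (orderOf ((Fintype.card F : ℕ) : ZMod r))) := ⟨⟨0, hpos⟩⟩
      infer_instance
    exact top_ne_bot hker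

end Cfsg.Agent.Lib.Helper56.Sng
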