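import Mathlib
import Cfsg.Prelude.Def_GeometricClasses
import Cfsg.Agent.Lib.Helper77.Asch.Defs

set_option autoImplicit false

namespace Cfsg.Agent.Lib.Helper56.Sng

open Cfsg Cfsg.Geo Cfsg.Agent.Lib.Helper77.Asch
open scoped MatrixGroups Matrix

variable {n : ℕ} {F : Type*} [Field F]

/-- CONJ. -/
theorem conj_shift (hn : 0 < n) (y : Matrix (Fin n) (Fin n) F) (hy : y ^ n = 1) (v : Fin n → F)
    (hv : LinearIndependent F (fun i : Fin n => (y ^ (i : ℕ)) *ᵥ v)) :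
    ∃ g : GL (Fin n) F, y * (g : Matrix (Fin n) (Fin n) F) = (g : Matrix (Fin n) (Fin n) F) * shiftM n F := by
  classical
  obtain ⟨vv, hvv⟩ : ∃ vv : Fin n → (Fin n → F), vv = fun i : Fin n => (y ^ (i : ℕ)) *ᵥ v := ⟨_, rfl⟩
  rw [← hvv] at hv
  have hunit : IsUnit ((Matrix.of vv)ᵀ) := by
    rw [Matrix.isUnit_transpose]
    exact Matrix.linearIndependent_rows_iff_isUnit.mp hv
  obtain ⟨Cu, hCu⟩ := hunit
  have hcol : ∀ (M : Matrix (Fin n) (Fin n) F) (i k : Fin n), (M * (Matrix.of vv)ᵀ) k i = (M *ᵥ vv i) k := by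
    intro M i k
    rfl
  refine ⟨Cu, ?_⟩
  rw [hCu]
  ext k i
  rw [hcol, Matrix.mul_apply]
  have hlt : ((i : ℕ) + 1) % n < n := Nat.mod_lt _ hn
  rw [Finset.sum_eq_single (⟨((i : ℕ) + 1) % n, hlt⟩ : Fin n)]
  · simp only [shiftM, if_true, mul_one, Matrix.transpose_apply, Matrix.of_apply]
    rw [hvv]
    simp only
    rw [Matrix.mulVec_mulVec, ← pow_succ']
    by_cases hi : (i : ℕ) + 1 < n
    · rw [Nat.mod_eq_of_lt hi]
    · have hi' : (i : ℕ) + 1 = n := by have := i.2; omega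
      rw [hi', Nat.mod_self, hy, pow_zero]
  · intro b _ hb
    have : ¬ ((b : ℕ) = ((i : ℕ) + 1) % n) := fun h => hb (Fin.ext h)
    simp [shiftM, this]
  · intro h
    exact absurd (Finset.mem_univ _) h

end Cfsg.Agent.Lib.Helper56.Sng
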