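import Mathlib
import Cfsg.Prelude.Def_GeometricClasses
import Cfsg.Agent.Lib.Helper77.Asch.Defs
import Cfsg.Agent.Lib.Helper25.Elu.SPLIT
import Cfsg.Agent.Lib.Helper25.Elu.DIVI
import Cfsg.Agent.Lib.Helper25.Elu.ORD

set_option autoImplicit false

namespace Cfsg.Agent.Lib.Helper56.Sng

open Cfsg Cfsg.Geo Cfsg.Agent.Lib.Helper77.Asch Cfsg.Agent.Lib.Helper25.Elu
open scoped MatrixGroups Matrix

variable {n : ℕ} {F : Type*} [Field F]

/-- CYCV. -/
theorem exists_cyclic_vec [Fintype F] {p : ℕ} [Fact p.Prime] [CharP F p] (hn : n.Prime) (hn2 : 2 < n)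
    (hnp : n ≠ p) (hc : orderOf ((Fintype.card F : ℕ) : ZMod n) = n - 1)
    (y : Matrix (Fin n) (Fin n) F) (hy : y ^ n = 1) (hy1 : y ≠ 1) :
    ∃ v : Fin n → F, LinearIndependent F (fun i : Fin n => (y ^ (i : ℕ)) *ᵥ v) := by
  classical
  have : Fact n.Prime := ⟨hn⟩
  obtain ⟨T, hTdef⟩ : ∃ T : Module.End F (Fin n → F), T = Matrix.toLin' y := ⟨_, rfl⟩
  have hTpow : ∀ (i : ℕ) (v : Fin n → F), (T ^ i) v = (y ^ i) *ᵥ v := by
    intro i v
    rw [hTdef, ← Matrix.toLin'_pow, Matrix.toLin'_apply]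
  have hTn : T ^ n = 1 := by
    apply LinearMap.ext
    intro v
    rw [hTpow, hy, Matrix.one_mulVec, Module.End.one_apply]
  have hT1 : T ≠ 1 := by
    intro h
    apply hy1
    apply Matrix.toLin'.injective
    rw [← hTdef, h, Matrix.toLin'_one]
    rfl
  obtain ⟨D, hDinv, hcompl, hsplit⟩ := exists_split T (natCast_ne_zero (F := F) hnp) hTn
  obtain ⟨W₁, hW₁⟩ : ∃ W₁ : Submodule F (Fin n → F), W₁ = LinearMap.ker (T - 1) := ⟨_, rfl⟩
  rw [← hW₁] at hcompl
  have hmemW : ∀ w, w ∈ W₁ ↔ T w = w := by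
    intro w
    rw [hW₁, LinearMap.mem_ker, LinearMap.sub_apply, Module.End.one_apply, sub_eq_zero]
  have hdisj : ∀ w, w ∈ W₁ → w ∈ D → w = 0 := by
    intro w h1 h2
    have : w ∈ W₁ ⊓ D := ⟨h1, h2⟩
    rw [hcompl.inf_eq_bot] at this
    exact (Submodule.mem_bot F).1 this
  have hdvd : ∀ Z : Submodule F (Fin n → F), IsInv T Z → (n - 1) ∣ Module.finrank F ↥(Z ⊓ D) := by
    intro Z hZ
    have := ordq_dvd_finrank T hnp hTn (Z ⊓ D) (hZ.inf hDinv)
      (fun w hw hTw => hdisj w ((hmemW w).2 hTw) hw.2)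
    unfold ordq at this
    rwa [hc] at this
  have hD0 : D ≠ ⊥ := by
    intro h
    apply hT1
    have htop : W₁ = ⊤ := by
      have := hcompl.sup_eq_top
      rwa [h, sup_bot_eq] at this
    apply LinearMap.ext
    intro v
    rw [Module.End.one_apply]
    exact (hmemW v).1 (by rw [htop]; exact Submodule.mem_top)
  have hW0 : W₁ ≠ ⊥ := by
    intro h
    have htop : D = ⊤ := by
      have := hcompl.sup_eq_top
      rwa [h, bot_sup_eq] at this
    have h1 := hdvd ⊤ (isInv_top T)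
    rw [htop, inf_top_eq, finrank_top, Module.finrank_fin_fun] at h1
    have h2 : n - 1 ∣ 1 := by
      have h3 : n - 1 ∣ (n - 1) + 1 := by
        have : n - 1 + 1 = n := by omega
        rwa [this]
      exact (Nat.dvd_add_right (dvd_refl _)).1 h3
    have := Nat.le_of_dvd one_pos h2
    omega
  obtain ⟨u, huW, hu0⟩ := Submodule.exists_mem_ne_zero_of_ne_bot hW0
  obtain ⟨d, hdD, hd0⟩ := Submodule.exists_mem_ne_zero_of_ne_bot hD0
  refine ⟨u + d, ?_⟩
  obtain ⟨Z, hZdef⟩ : ∃ Z : Submodule F (Fin n → F),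
      Z = Submodule.span F (Set.range (fun i : Fin n => (y ^ (i : ℕ)) *ᵥ (u + d))) := ⟨_, rfl⟩
  have hgen : ∀ j : ℕ, (T ^ j) (u + d) ∈ Z := by
    intro j
    rw [pow_eq_pow_mod j hTn, hTpow, hZdef]
    exact Submodule.subset_span ⟨⟨j % n, Nat.mod_lt _ hn.pos⟩, rfl⟩
  have hZinv : IsInv T Z := by
    intro w hw
    rw [hZdef] at hw
    induction hw using Submodule.span_induction with
    | mem w hw =>
      obtain ⟨i, rfl⟩ := hw
      have := hgen ((i : ℕ) + 1)
      rw [pow_succ', Module.End.mul_apply, hTpow] at this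
      exact this
    | zero => rw [map_zero]; exact Z.zero_mem
    | add a b _ _ ha hb => rw [map_add]; exact Z.add_mem ha hb
    | smul c a _ ha => rw [map_smul]; exact Z.smul_mem c ha
  have hvZ : u + d ∈ Z := by
    have := hgen 0
    rwa [pow_zero, Module.End.one_apply] at this
  have hs := hsplit Z hZinv
  rw [← hW₁] at hs
  have h1 : Module.finrank F ↥(Z ⊓ D) ≠ 0 := by
    intro h0
    rw [h0, add_zero] at hs
    have h2 : Z ⊓ W₁ = Z := Submodule.eq_of_le_of_finrank_eq inf_le_left hs.symm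
    have h3 : u + d ∈ W₁ := by
      have : u + d ∈ Z ⊓ W₁ := by rw [h2]; exact hvZ
      exact this.2
    apply hd0
    apply hdisj d _ hdD
    have := W₁.sub_mem h3 huW
    rwa [add_sub_cancel_left] at this
  have h2 : Module.finrank F ↥(Z ⊓ W₁) ≠ 0 := by
    intro h0
    rw [h0, zero_add] at hs
    have h2 : Z ⊓ D = Z := Submodule.eq_of_le_of_finrank_eq inf_le_left hs.symm
    have h3 : u + d ∈ D := by
      have : u + d ∈ Z ⊓ D := by rw [h2]; exact hvZ
      exact this.2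
    apply hu0
    apply hdisj u huW
    have := D.sub_mem h3 hdD
    rwa [add_sub_cancel_right] at this
  have h3 : n - 1 ≤ Module.finrank F ↥(Z ⊓ D) := Nat.le_of_dvd (Nat.pos_of_ne_zero h1) (hdvd Z hZinv)
  have h4 : n ≤ Module.finrank F Z := by rw [hs]; omega
  have hZtop : Z = ⊤ := by
    apply Submodule.eq_top_of_finrank_eq
    rw [Module.finrank_fin_fun]
    have := Submodule.finrank_le Z
    rw [Module.finrank_fin_fun] at this
    omega
  apply linearIndependent_of_top_le_span_of_card_eq_finrank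
  · rw [← hZdef, hZtop]
  · rw [Fintype.card_fin, Module.finrank_fin_fun]

end Cfsg.Agent.Lib.Helper56.Sng
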