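import Mathlib
import Cfsg.Prelude.Def_GeometricClasses
import Cfsg.Agent.Lib.Helper77.Asch.Defs
import Cfsg.Agent.Lib.Helper48.SingerN

set_option autoImplicit false

namespace Cfsg.Agent.Lib.Helper56.Sng

open Cfsg Cfsg.Geo Cfsg.Agent.Lib.Helper77.Asch
open scoped MatrixGroups Matrix

variable {n : ℕ} {F : Type*} [Field F]

/-- FIX (from helper48's `sing_scalar_of_two_eig`). -/
theorem fix_unique (hn : n.Prime) (K : Subalgebra F (Matrix (Fin n) (Fin n) F))
    (hK : IsFieldSubalgebra n K) (g : GL (Fin n) F) (hg : g ∈ subalgebraNormalizer K)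
    (u w : Fin n → F) (hu0 : u ≠ 0) (hind : ∀ a : F, w ≠ a • u)
    (hu : (g : Matrix (Fin n) (Fin n) F) *ᵥ u = u) (hw : (g : Matrix (Fin n) (Fin n) F) *ᵥ w = w) :
    g = 1 := by
  have h := Cfsg.Agent.Lib.Helper48.sing_scalar_of_two_eig hn K hK g hg 1 u w hu0 hind
    (by rw [hu, one_smul]) (by rw [hw, one_smul])
  apply Units.ext
  rw [h, one_smul, Units.val_one]

end Cfsg.Agent.Lib.Helper56.Sng
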