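import Mathlib
import Cfsg.Prelude.Def_GeometricClasses
import Cfsg.Agent.Lib.Helper77.Asch.Defs
import Cfsg.Agent.Lib.Helper48.SingerFrob

set_option autoImplicit false

namespace Cfsg.Agent.Lib.Helper56.Sng

open Cfsg Cfsg.Geo Cfsg.Agent.Lib.Helper77.Asch
open scoped MatrixGroups Matrix

variable {n : ℕ} {F : Type*} [Field F]

theorem exists_frob [Fintype F] (hn : n.Prime) (K : Subalgebra F (Matrix (Fin n) (Fin n) F))
    (hK : IsFieldSubalgebra n K) :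
    ∃ φ : GL (Fin n) F, φ ∈ subalgebraNormalizer K ∧ φ ^ n = 1 ∧ φ ≠ 1 := by
  obtain ⟨φ, h1, _, h3, _, _, h6⟩ := Cfsg.Agent.Lib.Helper48.exists_frob_strong hn.pos K hK
  exact ⟨φ, h1, h3, h6 hn.one_lt⟩

end Cfsg.Agent.Lib.Helper56.Sng
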