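import Mathlib
import Cfsg.Prelude.Def_GeometricClasses
import Cfsg.Agent.Lib.Helper77.Asch.Defs
import Cfsg.Agent.Lib.Helper56.Sng.FIX
import Cfsg.Agent.Lib.Helper56.Sng.FROB
import Cfsg.Agent.Lib.Helper56.Sng.BLK0
import Cfsg.Agent.Lib.Helper56.Sng.BLK1
import Cfsg.Agent.Lib.Helper56.Sng.BLK2
import Cfsg.Agent.Lib.Helper56.Sng.CYCV
import Cfsg.Agent.Lib.Helper56.Sng.CONJ
import Cfsg.Agent.Lib.Helper25.Elu.DET1
import Cfsg.Agent.Lib.Helper25.Elu.ORD

set_option autoImplicit false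
open scoped MatrixGroups
open Cfsg

namespace Cfsg.Agent.Lib.Helper56.Sng

open Cfsg Cfsg.Geo Cfsg.Agent.Lib.Helper77.Asch
open scoped MatrixGroups Matrix

variable {n : ℕ} {F : Type*} [Field F]

/-- an element of SL fixing two independent vectors has no conjugate in N(K). -/
theorem derange (hn : n.Prime) (K : Subalgebra F (Matrix (Fin n) (Fin n) F))
    (hK : IsFieldSubalgebra n K) (x P : Matrix.SpecialLinearGroup (Fin n) F) (hx1 : x ≠ 1)
    (u w : Fin n → F) (hu0 : u ≠ 0) (hind : ∀ a : F, w ≠ a • u)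
    (hu : (x : Matrix (Fin n) (Fin n) F) *ᵥ u = u) (hw : (x : Matrix (Fin n) (Fin n) F) *ᵥ w = w)
    (hP : P⁻¹ * x * P ∈ (subalgebraNormalizer K).comap
      (Matrix.SpecialLinearGroup.toGL : Matrix.SpecialLinearGroup (Fin n) F →* GL (Fin n) F)) : False := by
  rw [Subgroup.mem_comap] at hP
  have hPP : (P : Matrix (Fin n) (Fin n) F) * ((P⁻¹ : Matrix.SpecialLinearGroup (Fin n) F) : Matrix (Fin n) (Fin n) F) = 1 := by
    rw [← Matrix.SpecialLinearGroup.coe_mul, mul_inv_cancel, Matrix.SpecialLinearGroup.coe_one]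
  have hco : ((Matrix.SpecialLinearGroup.toGL (P⁻¹ * x * P) : GL (Fin n) F) : Matrix (Fin n) (Fin n) F)
      = ((P⁻¹ : Matrix.SpecialLinearGroup (Fin n) F) : Matrix (Fin n) (Fin n) F) * (x : Matrix (Fin n) (Fin n) F) * (P : Matrix (Fin n) (Fin n) F) := by
    rfl
  have hfix : ∀ v : Fin n → F, (x : Matrix (Fin n) (Fin n) F) *ᵥ v = v →
      ((Matrix.SpecialLinearGroup.toGL (P⁻¹ * x * P) : GL (Fin n) F) : Matrix (Fin n) (Fin n) F) *ᵥ
        (((P⁻¹ : Matrix.SpecialLinearGroup (Fin n) F) : Matrix (Fin n) (Fin n) F) *ᵥ v)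
        = ((P⁻¹ : Matrix.SpecialLinearGroup (Fin n) F) : Matrix (Fin n) (Fin n) F) *ᵥ v := by
    intro v hv
    rw [hco, Matrix.mulVec_mulVec, mul_assoc, hPP, mul_one, ← Matrix.mulVec_mulVec, hv]
  have hinj : ∀ v : Fin n → F, (P : Matrix (Fin n) (Fin n) F) *ᵥ
      (((P⁻¹ : Matrix.SpecialLinearGroup (Fin n) F) : Matrix (Fin n) (Fin n) F) *ᵥ v) = v := by
    intro v
    rw [Matrix.mulVec_mulVec, hPP, Matrix.one_mulVec]
  have h1 := fix_unique hn K hK _ hP
    (((P⁻¹ : Matrix.SpecialLinearGroup (Fin n) F) : Matrix (Fin n) (Fin n) F) *ᵥ u)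
    (((P⁻¹ : Matrix.SpecialLinearGroup (Fin n) F) : Matrix (Fin n) (Fin n) F) *ᵥ w)
    (by
      intro h0
      apply hu0
      rw [← hinj u, h0, Matrix.mulVec_zero])
    (by
      intro a h0
      apply hind a
      rw [← hinj w, h0, Matrix.mulVec_smul, hinj])
    (hfix u hu) (hfix w hw)
  have h2 : P⁻¹ * x * P = 1 := by
    apply Matrix.SpecialLinearGroup.toGL_injective
    rw [h1, map_one]
  apply hx1
  calc x = P * (P⁻¹ * x * P) * P⁻¹ := by group
    _ = 1 := by rw [h2]; group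

/-- conjugating into N(K) once both are conjugate to the shift. -/
theorem conj_into [Fintype F] (hn : n.Prime) (hq1 : ¬ n ∣ Fintype.card F - 1)
    (K : Subalgebra F (Matrix (Fin n) (Fin n) F))
    (x : Matrix.SpecialLinearGroup (Fin n) F) (φ g h : GL (Fin n) F) (hφ : φ ∈ subalgebraNormalizer K)
    (hg : (x : Matrix (Fin n) (Fin n) F) * (g : Matrix (Fin n) (Fin n) F) = (g : Matrix (Fin n) (Fin n) F) * shiftM n F)
    (hh : (φ : Matrix (Fin n) (Fin n) F) * (h : Matrix (Fin n) (Fin n) F) = (h : Matrix (Fin n) (Fin n) F) * shiftM n F) :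
    ∃ P : Matrix.SpecialLinearGroup (Fin n) F, P⁻¹ * x * P ∈ (subalgebraNormalizer K).comap
      (Matrix.SpecialLinearGroup.toGL : Matrix.SpecialLinearGroup (Fin n) F →* GL (Fin n) F) := by
  classical
  -- `P₀ = g h⁻¹`
  obtain ⟨P₀, hP₀⟩ : ∃ P₀ : GL (Fin n) F, P₀ = g * h⁻¹ := ⟨_, rfl⟩
  have hd0 : (P₀ : Matrix (Fin n) (Fin n) F).det ≠ 0 := by
    have := (Matrix.isUnit_iff_isUnit_det _).1 P₀.isUnit
    exact this.ne_zero
  obtain ⟨a, ha⟩ := Cfsg.Agent.Lib.Helper25.Elu.exists_pow_eq_of_not_dvd hn hq1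
    ((P₀ : Matrix (Fin n) (Fin n) F).det)⁻¹
  have ha0 : a ≠ 0 := by
    intro h0
    rw [h0, zero_pow hn.pos.ne'] at ha
    exact inv_ne_zero hd0 ha.symm
  have hdet : (a • (P₀ : Matrix (Fin n) (Fin n) F)).det = 1 := by
    rw [Matrix.det_smul, Fintype.card_fin, ha, inv_mul_cancel₀ hd0]
  obtain ⟨P, hPdef⟩ : ∃ P : Matrix.SpecialLinearGroup (Fin n) F,
      (P : Matrix (Fin n) (Fin n) F) = a • (P₀ : Matrix (Fin n) (Fin n) F) := ⟨⟨_, hdet⟩, rfl⟩
  refine ⟨P, ?_⟩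
  rw [Subgroup.mem_comap]
  have hx : (Matrix.SpecialLinearGroup.toGL x : GL (Fin n) F) * P₀ = P₀ * φ := by
    apply Units.ext
    have e1 : (h : Matrix (Fin n) (Fin n) F) * ((h⁻¹ : GL (Fin n) F) : Matrix (Fin n) (Fin n) F) = 1 := by
      rw [← Units.val_mul, mul_inv_cancel, Units.val_one]
    have e2 : ((h⁻¹ : GL (Fin n) F) : Matrix (Fin n) (Fin n) F) * (h : Matrix (Fin n) (Fin n) F) = 1 := by
      rw [← Units.val_mul, inv_mul_cancel, Units.val_one]
    have e3 : shiftM n F * ((h⁻¹ : GL (Fin n) F) : Matrix (Fin n) (Fin n) F)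
        = ((h⁻¹ : GL (Fin n) F) : Matrix (Fin n) (Fin n) F) * (φ : Matrix (Fin n) (Fin n) F) := by
      calc shiftM n F * ((h⁻¹ : GL (Fin n) F) : Matrix (Fin n) (Fin n) F)
          = (((h⁻¹ : GL (Fin n) F) : Matrix (Fin n) (Fin n) F) * (h : Matrix (Fin n) (Fin n) F)) * shiftM n F * ((h⁻¹ : GL (Fin n) F) : Matrix (Fin n) (Fin n) F) := by
            rw [e2, one_mul]
        _ = ((h⁻¹ : GL (Fin n) F) : Matrix (Fin n) (Fin n) F) * ((φ : Matrix (Fin n) (Fin n) F) * (h : Matrix (Fin n) (Fin n) F)) * ((h⁻¹ : GL (Fin n) F) : Matrix (Fin n) (Fin n) F) := by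
            rw [hh]; simp only [mul_assoc]
        _ = _ := by rw [mul_assoc, mul_assoc, e1, mul_one]
    rw [hP₀, Units.val_mul, Units.val_mul, Units.val_mul, Units.val_mul]
    show (x : Matrix (Fin n) (Fin n) F) * _ = _
    rw [← mul_assoc, hg, mul_assoc, e3, mul_assoc]
  have hP : (Matrix.SpecialLinearGroup.toGL P : GL (Fin n) F)
      = sc (Units.mk0 a ha0) * P₀ := by
    apply Units.ext
    rw [Units.val_mul]
    show (P : Matrix (Fin n) (Fin n) F) = _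
    rw [hPdef]
    simp [sc, Matrix.scalar_apply, Matrix.smul_eq_diagonal_mul]
  have hsc : ∀ y : GL (Fin n) F, sc (Units.mk0 a ha0) * y = y * sc (Units.mk0 a ha0) := by
    intro y
    apply Units.ext
    rw [Units.val_mul, Units.val_mul]
    simp only [sc, Units.coe_map, RingHom.toMonoidHom_eq_coe, MonoidHom.coe_coe, Units.val_mk0]
    exact (Matrix.scalar_commute a (fun _ => mul_comm _ _) _)
  have : (Matrix.SpecialLinearGroup.toGL (P⁻¹ * x * P) : GL (Fin n) F) = φ := by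
    rw [map_mul, map_mul, map_inv, hP]
    calc (sc (Units.mk0 a ha0) * P₀)⁻¹ * Matrix.SpecialLinearGroup.toGL x * (sc (Units.mk0 a ha0) * P₀)
        = P₀⁻¹ * (sc (Units.mk0 a ha0))⁻¹ * (Matrix.SpecialLinearGroup.toGL x * sc (Units.mk0 a ha0)) * P₀ := by group
      _ = P₀⁻¹ * (sc (Units.mk0 a ha0))⁻¹ * (sc (Units.mk0 a ha0) * Matrix.SpecialLinearGroup.toGL x) * P₀ := by rw [hsc]
      _ = P₀⁻¹ * (Matrix.SpecialLinearGroup.toGL x * P₀) := by group
      _ = φ := by rw [hx]; group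
  rw [this]
  exact hφ

theorem exists_block' (m k r : ℕ) (hmk : m + k = n) (hk : 2 ≤ k) (A : Matrix (Fin m) (Fin m) F)
    (hA : A ^ r = 1) (hd : A.det = 1) (hA1 : A ≠ 1) :
    ∃ x : Matrix.SpecialLinearGroup (Fin n) F, x ^ r = 1 ∧ x ≠ 1 ∧
      ∃ u w : Fin n → F, u ≠ 0 ∧ (∀ a : F, w ≠ a • u) ∧
        (x : Matrix (Fin n) (Fin n) F) *ᵥ u = u ∧
        (x : Matrix (Fin n) (Fin n) F) *ᵥ w = w := by
  subst hmk
  exact exists_block m k r hk A hA hd hA1

theorem exists_two_fixed [Fintype F] {p : ℕ} [Fact p.Prime] [CharP F p] (hn : n.Prime) (hn3 : 3 < n)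
    (hnp : n ≠ p) (hc : orderOf ((Fintype.card F : ℕ) : ZMod n) ≠ n - 1) :
    ∃ x : Matrix.SpecialLinearGroup (Fin n) F, x ^ n = 1 ∧ x ≠ 1 ∧
      ∃ u w : Fin n → F, u ≠ 0 ∧ (∀ a : F, w ≠ a • u) ∧
        (x : Matrix (Fin n) (Fin n) F) *ᵥ u = u ∧
        (x : Matrix (Fin n) (Fin n) F) *ᵥ w = w := by
  have : Fact n.Prime := ⟨hn⟩
  by_cases h1 : n ∣ Fintype.card F - 1
  · obtain ⟨A, hA, hd, hA1⟩ := exists_small_one hn h1
    exact exists_block' 2 (n - 2) n (by omega) (by omega) A hA hd hA1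
  · obtain ⟨A, hA, hd, hA1⟩ := exists_small_ord hnp h1
    have hdvd : orderOf ((Fintype.card F : ℕ) : ZMod n) ∣ n - 1 := by
      apply orderOf_dvd_of_pow_eq_one
      apply ZMod.pow_card_sub_one_eq_one
      intro h0
      rw [ZMod.natCast_eq_zero_iff] at h0
      exact Cfsg.Agent.Lib.Helper25.Elu.not_dvd_card hnp h0
    obtain ⟨t, ht⟩ := hdvd
    have ht2 : 2 ≤ t := by
      rcases t with _ | _ | t
      · omega
      · rw [zero_add, mul_one] at ht; exact absurd ht.symm hc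
      · omega
    have hc1 : 1 ≤ orderOf ((Fintype.card F : ℕ) : ZMod n) := by
      rcases Nat.eq_zero_or_pos (orderOf ((Fintype.card F : ℕ) : ZMod n)) with h0 | h0
      · rw [h0, zero_mul] at ht; omega
      · exact h0
    have hle : orderOf ((Fintype.card F : ℕ) : ZMod n) + 2 ≤ n := by
      have : orderOf ((Fintype.card F : ℕ) : ZMod n) * 2 ≤ n - 1 := by
        rw [ht]; exact Nat.mul_le_mul_left _ ht2
      omega
    exact exists_block' _ (n - orderOf ((Fintype.card F : ℕ) : ZMod n)) n (by omega) (by omega) A hA hd hA1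

end Cfsg.Agent.Lib.Helper56.Sng

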